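import Cfsg.Agent.H6.J4.N.C5.D2

set_option autoImplicit false
set_option maxRecDepth 100000
set_option Elab.async false

namespace Cfsg.H6.J4.N.C5

theorem b0 : allR (blk get gs (gwB gwh 420) gd 380685815092728712611291700973221854207607296) 4 881 = true := by decide +kernel

theorem b1 : allR (blk get gs (gwB gwh 420) gd 380685815092728712611291700973221854207607296) 885 845 = true := by decide +kernel

theorem b2 : allR (blk get gs (gwB gwh 420) gd 380685815092728712611291700973221854207607296) 1730 908 = true := by decide +kernel

theorem b3 : allR (blk get gs (gwB gwh 420) gd 380685815092728712611291700973221854207607296) 2638 840 = true := by decide +kernel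

theorem b4 : allR (blk get gs (gwB gwh 420) gd 380685815092728712611291700973221854207607296) 3478 631 = true := by decide +kernel

theorem b5 : allR (blk get gs (gwB gwh 420) gd 380685815092728712611291700973221854207607296) 4109 590 = true := by decide +kernel

theorem b6 : allR (blk get gs (gwB gwh 420) gd 380685815092728712611291700973221854207607296) 4699 579 = true := by decide +kernel

theorem b7 : allR (blk get gs (gwB gwh 420) gd 380685815092728712611291700973221854207607296) 5278 577 = true := by decide +kernel

theorem b8 : allR (blk get gs (gwB gwh 420) gd 380685815092728712611291700973221854207607296) 5855 566 = true := by decide +kernel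

theorem b9 : allR (blk get gs (gwB gwh 420) gd 380685815092728712611291700973221854207607296) 6421 540 = true := by decide +kernel

theorem b10 : allR (blk get gs (gwB gwh 420) gd 380685815092728712611291700973221854207607296) 6961 519 = true := by decide +kernel

theorem b11 : allR (blk get gs (gwB gwh 420) gd 380685815092728712611291700973221854207607296) 7480 494 = true := by decide +kernel

end Cfsg.H6.J4.N.C5
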