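import Cfsg.Agent.H6.J4.N.C5.D2

set_option autoImplicit false
set_option maxRecDepth 100000
set_option Elab.async false

namespace Cfsg.H6.J4.N.C5

theorem b12 : allR (blk get gs (gwB gwh 420) gd 380685815092728712611291700973221854207607296) 7974 465 = true := by decide +kernel

theorem b13 : allR (blk get gs (gwB gwh 420) gd 380685815092728712611291700973221854207607296) 8439 426 = true := by decide +kernel

theorem b14 : allR (blk get gs (gwB gwh 420) gd 380685815092728712611291700973221854207607296) 8865 134 = true := by decide +kernel

theorem c0 : allR (clo get gc 15456 576192 242) 0 1562 = true := by decide +kernel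

theorem c1 : allR (clo get gc 15456 576192 242) 1562 1562 = true := by decide +kernel

theorem c2 : allR (clo get gc 15456 576192 242) 3124 264 = true := by decide +kernel

end Cfsg.H6.J4.N.C5
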